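import Cfsg.Agent.H215.L2Out.Filt
import Cfsg.Agent.H76.OC.AutP
import Cfsg.Agent.FixBN.WittNodeA
import Cfsg.Agent.KFacts.RgdSyl
import Cfsg.Agent.KFacts.RgdEx

/-!
# Rigidity for a root group datum in characteristic two (task LRIG of S2927)

`core` : a 2-automorphism `y` of a group with a root group datum normalising `U`, in a group `P` of automorphisms
normalising `U`, such that `[y, N(R)] ≤ O₂(N(R))` for all `P`-invariant `R ≤ U`, is conjugation with an element of `U`.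
-/

set_option autoImplicit false
set_option linter.unusedSectionVars false

namespace Cfsg.Agent.H382.Tall

open CoxeterSystem Cfsg.Agent.ChevalleyStructure.CoxeterGeom Cfsg.Agent.Tits.Roots Cfsg.Agent.Tits.Core
  Cfsg.Agent.Tits.Exchange Cfsg.Agent.Nodes.Reps Cfsg.Agent.Nodes.BNOf Cfsg.Agent.Nodes.StabComb
  Cfsg.Agent.Nodes.Bruhat Cfsg.Agent.Nodes.OppDec Cfsg.Agent.Nodes.LeviDec Cfsg.Agent.Nodes.NormalForm
  Cfsg.Agent.Nodes.NormX Cfsg.Agent.KFacts.RgdCent Cfsg.Agent.KFacts.RgdVJ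
  Cfsg.Agent.KFacts.RgdOpp Cfsg.Agent.KFacts.RgdAut Cfsg.Agent.KFacts.RgdDiag Cfsg.Agent.KFacts.RgdRigid
  Cfsg.Agent.KFacts.RgdFixU Cfsg.Agent.H246.RgdFixUTwo Cfsg.Agent.KFacts.RgdCharP Cfsg.Agent.FixBN.WittNodeA
  Cfsg.Agent.FixBN.NodeRGD
open scoped commutatorElement

/-- The raw form of the hypotheses. -/
structure Raw {K : Type*} [Group K] (S : Subgroup K) (P : Subgroup (MulAut K)) (y : MulAut K) : Prop where
  mem : y ∈ P
  conj_mem : ∀ s ∈ S, MulAut.conj s ∈ P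
  P_norm : ∀ α ∈ P, ∀ s ∈ S, α s ∈ S
  loc : ∃ R : Subgroup K, R ≠ ⊥ ∧ R ≤ S ∧ (∀ α ∈ P, ∀ r ∈ R, α r ∈ R) ∧
    ¬ Subgroup.normalizer (R : Set K) ≤ Subgroup.normalizer (S : Set K)
  V_loc : ∀ R : Subgroup K, R ≠ ⊥ → R ≤ S → (∀ α ∈ P, ∀ r ∈ R, α r ∈ R) →
    ∀ k ∈ Subgroup.normalizer (R : Set K), ∃ D : Subgroup K, D ≤ Subgroup.normalizer (R : Set K) ∧ IsPGroup 2 D ∧
      (∀ g ∈ Subgroup.normalizer (R : Set K), ∀ d ∈ D, g * d * g⁻¹ ∈ D) ∧ k⁻¹ * y k ∈ D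

/-- Invariance under a group of automorphisms. -/
theorem fix_of_inv {K : Type*} [Group K] {P : Subgroup (MulAut K)} {S : Subgroup K}
    (h : ∀ α ∈ P, ∀ s ∈ S, α s ∈ S) {α : MulAut K} (hα : α ∈ P) : Fix α S := by
  intro x
  refine ⟨fun hx => ?_, h α hα x⟩
  have h1 := h α⁻¹ (inv_mem hα) _ hx
  rwa [MulAut.inv_apply_self] at h1

variable {I W Y : Type*} [Fintype I] [DecidableEq I] [Group W] [Group Y] {M : CoxeterMatrix I}
  {cs : CoxeterSystem M W} {A : I → I → ℤ} {h : IsCartan M A} {T : Subgroup Y} {n : I → Y}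
  {X : (I → ℤ) → Subgroup Y}

variable (R : RGD cs h 2 T n X)

include R

theorem n_mem_PJ_iff [Finite W] {J : Set I} {i : I} : n i ∈ PJ cs h T X J ↔ i ∈ J := by
  constructor
  · intro hi
    have h3 := (cell_mem_PJ_iff R (cell_of_rp (rp_simple cs R.nsys i))).1 hi
    by_contra hiJ
    have h4 := NotJ.act h3 (sr_mem_NotJ (cs := cs) (h := h) hiJ)
    rw [rep_simple_sr] at h4
    exact h4.1.ne_zero (le_antisymm (neg_nonpos.2 (sr_nonneg i)) h4.2.1)
  · intro hi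
    exact LJ_le_PJ (n_mem_LJ R hi)

theorem PJ_le_iff [Finite W] {J J' : Set I} : PJ cs h T X J ≤ PJ cs h T X J' ↔ J ⊆ J' := by
  constructor
  · intro hle i hi
    exact (n_mem_PJ_iff R).1 (hle ((n_mem_PJ_iff R).2 hi))
  · intro hJ g hg
    obtain ⟨w, hw, hc⟩ := (mem_PJ_iff_cell R).1 hg
    refine (mem_PJ_iff_cell R).2 ⟨w, ?_, hc⟩
    exact Subgroup.closure_mono (Set.image_mono hJ) hw

theorem PJ_injective [Finite W] {J J' : Set I} (he : PJ cs h T X J = PJ cs h T X J') : J = J' :=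
  Set.Subset.antisymm ((PJ_le_iff R).1 he.le) ((PJ_le_iff R).1 he.ge)

/-- The unipotent radical is the core of `U` in the parabolic subgroup. -/
theorem mem_VJ_iff [Finite W] {J : Set I} {c : Y} :
    c ∈ VJ cs h X J ↔ ∀ g ∈ PJ cs h T X J, g * c * g⁻¹ ∈ RGD.Sup X (RGD.Pos cs h) := by
  constructor
  · intro hc g hg
    exact VJ_le_U J ((Subgroup.mem_normalizer_iff.1 (PJ_le_normalizer_VJ R J hg) c).1 hc)
  · intro hc
    obtain ⟨t, ht, v, hv, rfl⟩ := mem_TV R (J := J) fun g hg => RGD.U_le_B (hc g hg)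
    have h1 := hc 1 (one_mem _)
    rw [one_mul, inv_one, mul_one] at h1
    have h2 : t ∈ RGD.Sup X (RGD.Pos cs h) := by
      have := mul_mem h1 (inv_mem (VJ_le_U J hv))
      rwa [mul_inv_cancel_right] at this
    have h3 : t = 1 := by
      obtain ⟨k, hk⟩ := (R.isPGroup_of_pos (S := RGD.Pos cs h) fun x hx => hx) ⟨t, h2⟩
      exact eq_one_of_mem_T R ht (k := k) (congrArg Subtype.val hk)
    rw [h3, one_mul]
    exact hv

theorem VJ_ne_bot [Finite W] {J : Set I} (hJ : J ≠ Set.univ) : VJ cs h X J ≠ ⊥ := by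
  obtain ⟨i, hi⟩ := (Set.ne_univ_iff_exists_notMem J).1 hJ
  obtain ⟨x, hx, hx1⟩ := exists_ne_one R i
  intro h1
  apply hx1
  have h2 : x ∈ VJ cs h X J := RGD.le_Sup (S := NotJ cs h J) (sr_mem_NotJ hi) hx
  rwa [h1, Subgroup.mem_bot] at h2

/-- an automorphism fixing `U` and `P_J` fixes `V_J` -/
theorem fix_VJ [Finite W] {J : Set I} {α : MulAut Y} (hU : Fix α (RGD.Sup X (RGD.Pos cs h)))
    (hP : Fix α (PJ cs h T X J)) : Fix α (VJ cs h X J) := by
  have key : ∀ β : MulAut Y, Fix β (RGD.Sup X (RGD.Pos cs h)) → Fix β (PJ cs h T X J) →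
      ∀ c ∈ VJ cs h X J, β c ∈ VJ cs h X J := by
    intro β hU hP c hc
    rw [mem_VJ_iff R] at hc ⊢
    intro g hg
    have h1 := hc (β⁻¹ g) ((hP.inv g).2 hg)
    rw [← hU, map_mul, map_mul, map_inv, MulAut.apply_inv_self] at h1
    exact h1
  intro x
  refine ⟨fun hx => ?_, key α hU hP x⟩
  have h1 := key α⁻¹ hU.inv hP.inv _ hx
  rwa [MulAut.inv_apply_self] at h1

/-- **The last step.** -/
theorem eq_conj_of_panel [Finite W] [Finite Y] (hG1 : RGD.Sup X {x | IsRoot cs h x} = ⊤) {y : MulAut Y}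
    (hy : Fix y (RGD.Sup X (RGD.Pos cs h)))
    (hA : ∀ i, ∀ k ∈ PJ cs h T X {i}, k⁻¹ * y k ∈ RGD.Sup X (RGD.PosNe cs h i)) :
    ∃ s ∈ RGD.Sup X (RGD.Pos cs h), y = MulAut.conj s := by
  have hG := GG_eq_top (T := T) hG1
  obtain ⟨u, hu, hU, hUN, -, σ, D⟩ := exists_frame_pow R hG hy
  have hX : ∀ i, X (sr i) ≤ RGD.Sup X (RGD.Pos cs h) := fun i =>
    RGD.le_Sup (S := RGD.Pos cs h) ⟨isRoot_sr cs h i, sr_nonneg i⟩
  have hUP : ∀ i : I, RGD.Sup X (RGD.Pos cs h) ≤ PJ cs h T X {i} := fun i => le_trans RGD.U_le_B B_le_PJ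
  have hβ : ∀ x, (MulAut.conj u * y) x = u * y x * u⁻¹ := by
    intro x
    rw [MulAut.mul_apply, MulAut.conj_apply]
  -- `σ = 1`
  have hσ : ∀ i, σ i = i := by
    intro i
    by_contra hne
    obtain ⟨x, hx, hx1⟩ := exists_ne_one R i
    have h1 := (D.pos i x).2 hx
    rw [hβ x] at h1
    have h2 : u * y x * u⁻¹ ∈ RGD.Sup X (RGD.PosNe cs h i) := by
      refine RGD.le_Sup (S := RGD.PosNe cs h i) ⟨isRoot_sr cs h (σ i), sr_nonneg _, ?_⟩ h1
      intro h3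
      have h4 := congrFun h3 (σ i)
      rw [sr_self, sr_ne hne] at h4
      exact one_ne_zero h4
    have h3 : y x ∈ RGD.Sup X (RGD.PosNe cs h i) :=
      (Subgroup.mem_normalizer_iff.1 (U_le_normalizer_V R i hu) _).2 h2
    have h4 : x ∈ RGD.Sup X (RGD.PosNe cs h i) := by
      have h5 := mul_mem h3 (inv_mem (hA i x (hUP i (hX i hx))))
      have h6 : y x * (x⁻¹ * y x)⁻¹ = x := by group
      rwa [h6] at h5
    exact hx1 (eq_one_of_mem_V R i hx h4)
  -- `u ∈ V_i`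
  have huV : ∀ i, u ∈ RGD.Sup X (RGD.PosNe cs h i) := by
    intro i
    obtain ⟨a, ha, v, hv, e⟩ := exists_mul_V R i hu
    obtain ⟨w, hw⟩ : ∃ w, w = (n i)⁻¹ * y (n i) := ⟨_, rfl⟩
    have hwV : w ∈ RGD.Sup X (RGD.PosNe cs h i) := by
      rw [hw]
      exact hA i (n i) ((n_mem_PJ_iff R).2 rfl)
    have hwB : w ∈ RGD.B cs h T X := RGD.U_le_B (V_le_U R i hwV)
    have h1 : Rp cs R.nsys (cs.simple i) ((MulAut.conj u * y) (n i)) := by
      have := Diag.rp (R := R) D i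
      rwa [hσ i] at this
    have h2 : (n i)⁻¹ * (MulAut.conj u * y) (n i) ∈ T := (rp_simple cs R.nsys i).unique h1
    have h3 : (n i)⁻¹ * u * n i ∈ RGD.B cs h T X := by
      have h4 : (n i)⁻¹ * u * n i = (n i)⁻¹ * (MulAut.conj u * y) (n i) * u * w⁻¹ := by
        rw [hβ, hw]; group
      rw [h4]
      exact mul_mem (mul_mem (RGD.T_le_B h2) (RGD.U_le_B hu)) (inv_mem hwB)
    have h4 : (n i)⁻¹ * v * n i ∈ RGD.B cs h T X := RGD.U_le_B (V_le_U R i (conj_V_mem R i hv))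
    have h5 : (n i)⁻¹ * a * n i ∈ RGD.B cs h T X := by
      have h6 : (n i)⁻¹ * a * n i = (n i)⁻¹ * u * n i * ((n i)⁻¹ * v * n i)⁻¹ := by rw [e]; group
      rw [h6]
      exact mul_mem h3 (inv_mem h4)
    have h6 : (n i)⁻¹ * a * n i ∈ X (-sr i) := by
      have := R.conj_mem' (rp_simple cs R.nsys i) (isRoot_sr cs h i) ha
      rwa [inv_simple, rep_simple_sr] at this
    have h7 : (n i)⁻¹ * a * n i = 1 := by
      by_contra hne
      exact not_mem_B_of_neg R i h6 hne h5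
    have h8 : a = 1 := by
      have : a = n i * ((n i)⁻¹ * a * n i) * (n i)⁻¹ := by group
      rw [this, h7]; group
    rw [e, h8, one_mul]
    exact hv
  have hσ1 : σ = 1 := Equiv.ext hσ
  subst hσ1
  have hpos : ∀ i, ∀ x ∈ X (sr i), (MulAut.conj u * y) x = x := by
    intro i x hx
    have h1 := (D.pos i x).2 hx
    rw [Equiv.Perm.one_apply] at h1
    have h2 : x⁻¹ * (MulAut.conj u * y) x ∈ X (sr i) := mul_mem (inv_mem hx) h1
    have h3 : x⁻¹ * (MulAut.conj u * y) x ∈ RGD.Sup X (RGD.PosNe cs h i) := by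
      have h4 : x⁻¹ * (MulAut.conj u * y) x = x⁻¹ * u * x * (x⁻¹ * y x) * u⁻¹ := by
        rw [hβ]; group
      rw [h4]
      refine mul_mem (mul_mem ?_ (hA i x (hUP i (hX i hx)))) (inv_mem (huV i))
      have h5 := (Subgroup.mem_normalizer_iff.1 (U_le_normalizer_V R i (inv_mem (hX i hx))) u).1 (huV i)
      rwa [inv_inv] at h5
    exact (inv_mul_eq_one.1 (eq_one_of_mem_V R i h2 h3)).symm
  have h1 := Diag.eq_one R hG1 D hpos
  refine ⟨u⁻¹, inv_mem hu, ?_⟩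
  rw [map_inv]
  exact eq_inv_of_mul_eq_one_right h1

/-- `U` is a Sylow 2-subgroup. -/
theorem exists_sylow_U [Finite W] [Finite Y] (hG : GG cs h T X = ⊤) :
    ∃ S : Sylow 2 Y, (S : Subgroup Y) = RGD.Sup X (RGD.Pos cs h) := by
  have : Fact (Nat.Prime 2) := ⟨Nat.prime_two⟩
  have h1 := KFacts.RgdSyl.not_dvd_relIndex R
  rw [hG, Subgroup.relIndex_top_right] at h1
  exact ⟨R.isPGroup_Upos.toSylow h1, rfl⟩

/-- **Borel–Tits for the normaliser of a nontrivial 2-subgroup containing `U`.** -/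
theorem le_PJ_of_BT [Finite W] [Finite Y] (hBT : BT cs h 2 T X) (hG : GG cs h T X = ⊤) {K : Subgroup Y}
    (hK : IsPGroup 2 K) (hK1 : K ≠ ⊥)
    (hU : RGD.Sup X (RGD.Pos cs h) ≤ Subgroup.normalizer (K : Set Y)) :
    ∃ J : Set I, J ≠ Set.univ ∧ Subgroup.normalizer (K : Set Y) ≤ PJ cs h T X J := by
  have : Fact (Nat.Prime 2) := ⟨Nat.prime_two⟩
  obtain ⟨S, hS⟩ := exists_sylow_U R hG
  obtain ⟨g, J, hJ, -, hle⟩ := hBT K hK hK1
  refine ⟨J, hJ, ?_⟩
  set P' : Subgroup Y := cj g (PJ cs h T X J) with hP'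
  -- `U` and `g U g⁻¹` are Sylow subgroups of `P'`
  have hUP : RGD.Sup X (RGD.Pos cs h) ≤ PJ cs h T X J := RGD.U_le_B.trans B_le_PJ
  have hUP' : cj g (RGD.Sup X (RGD.Pos cs h)) ≤ P' := cj_mono g hUP
  obtain ⟨x, hx, he⟩ : ∃ x ∈ P', cj x (cj g (RGD.Sup X (RGD.Pos cs h))) = RGD.Sup X (RGD.Pos cs h) := by
    have hS1 : (S : Subgroup Y) ≤ P' := hS ▸ hU.trans hle
    have hS2 : ((g • S : Sylow 2 Y) : Subgroup Y) ≤ P' := by
      rw [Sylow.coe_subgroup_smul]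
      change cj g (S : Subgroup Y) ≤ P'
      rw [hS]; exact hUP'
    let S1 : Sylow 2 P' := S.subtype hS1
    let S2 : Sylow 2 P' := (g • S).subtype hS2
    obtain ⟨x, hx⟩ := MulAction.exists_smul_eq P' S2 S1
    refine ⟨x, x.2, ?_⟩
    have h1 : ((x • S2 : Sylow 2 P') : Subgroup P').map P'.subtype = (S1 : Subgroup P').map P'.subtype := by rw [hx]
    have h2 : ((S1 : Subgroup P').map P'.subtype) = RGD.Sup X (RGD.Pos cs h) := by
      rw [Sylow.coe_subtype, Subgroup.subgroupOf_map_subtype, inf_eq_left.2 hS1, hS]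
    rw [h2] at h1
    have h3 : ((x • S2 : Sylow 2 P') : Subgroup P') = (S2 : Subgroup P').map (MulAut.conj x).toMonoidHom := by
      rw [Sylow.coe_subgroup_smul]; rfl
    have h4 : ((S2 : Subgroup P').map P'.subtype) = cj g (RGD.Sup X (RGD.Pos cs h)) := by
      rw [Sylow.coe_subtype, Subgroup.subgroupOf_map_subtype, inf_eq_left.2 hS2, Sylow.coe_subgroup_smul, ← hS]
      rfl
    rw [← h4, ← h1, h3]
    ext y
    constructor
    · rintro ⟨_, ⟨z, hz, rfl⟩, rfl⟩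
      exact ⟨_, ⟨z, hz, rfl⟩, rfl⟩
    · rintro ⟨_, ⟨z, hz, rfl⟩, rfl⟩
      exact ⟨_, ⟨z, hz, rfl⟩, rfl⟩
  have hxg : x * g ∈ RGD.B cs h T X := by
    rw [← KFacts.RgdEx.normalizer_U R, hG, inf_top_eq, mem_normalizer_iff_cj, cj_mul]
    exact he
  have hP : P' = PJ cs h T X J := by
    have h1 : cj x P' = P' := cj_eq_of_mem hx
    rw [← h1, hP', ← cj_mul]
    exact cj_eq_of_mem (B_le_PJ hxg)
  rwa [hP] at hle

/-- **Rigidity**, the case `S = U`. -/
theorem core [Finite W] [Finite Y] (hG1 : RGD.Sup X {x | IsRoot cs h x} = ⊤) (hBT : BT cs h 2 T X)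
    {P : Subgroup (MulAut Y)} {y : MulAut Y} (L : Raw (RGD.Sup X (RGD.Pos cs h)) P y) :
    ∃ s ∈ RGD.Sup X (RGD.Pos cs h), y = MulAut.conj s := by
  have hG := GG_eq_top (T := T) hG1
  have hNU : Subgroup.normalizer (RGD.Sup X (RGD.Pos cs h) : Set Y) = RGD.B cs h T X := normalizer_U' R hG
  have hfU : ∀ α ∈ P, Fix α (RGD.Sup X (RGD.Pos cs h)) := fun α hα => fix_of_inv L.P_norm hα
  have hfB : ∀ α ∈ P, Fix α (RGD.B cs h T X) := fun α hα => fix_B R hG (hfU α hα)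
  -- `U` normalises the `P`-invariant subgroups
  have hUR : ∀ R₀ : Subgroup Y, (∀ α ∈ P, ∀ r ∈ R₀, α r ∈ R₀) →
      RGD.Sup X (RGD.Pos cs h) ≤ Subgroup.normalizer (R₀ : Set Y) := by
    intro R₀ h1 s hs
    rw [Subgroup.mem_normalizer_iff]
    intro x
    have := fix_of_inv h1 (L.conj_mem s hs) x
    rw [MulAut.conj_apply] at this
    exact this.symm
  -- a `P`-invariant parabolic subgroup
  obtain ⟨J, hJ0, hJ1, hJP⟩ : ∃ J : Set I, J.Nonempty ∧ J ≠ Set.univ ∧ ∀ α ∈ P, Fix α (PJ cs h T X J) := by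
    obtain ⟨R₀, hR1, hRU, hRP, hRN⟩ := L.loc
    have hR2 : IsPGroup 2 R₀ := (R.isPGroup_Upos).to_le hRU
    obtain ⟨J₁, hJ₁, hle⟩ := le_PJ_of_BT R hBT hG hR2 hR1 (hUR R₀ hRP)
    obtain ⟨H, hH⟩ : ∃ H, H = RGD.B cs h T X ⊔ Subgroup.normalizer (R₀ : Set Y) := ⟨_, rfl⟩
    have hBH : RGD.B cs h T X ≤ H := by rw [hH]; exact le_sup_left
    have hNH : Subgroup.normalizer (R₀ : Set Y) ≤ H := by rw [hH]; exact le_sup_right
    have hHJ : H ≤ PJ cs h T X J₁ := by rw [hH]; exact sup_le B_le_PJ hle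
    have hHeq := inf_eq_PJ R hBH
    rw [hG, inf_top_eq] at hHeq
    refine ⟨{i | n i ∈ H}, ?_, ?_, ?_⟩
    · by_contra hne
      rw [Set.not_nonempty_iff_eq_empty] at hne
      rw [hne, PJ_empty R] at hHeq
      apply hRN
      rw [hNU, ← hHeq]
      exact hNH
    · intro hu
      apply hJ₁
      rw [Set.eq_univ_iff_forall]
      intro i
      rw [← n_mem_PJ_iff R]
      apply hHJ
      have h1 : i ∈ {i | n i ∈ H} := by rw [hu]; exact Set.mem_univ i
      exact h1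
    · intro α hα
      rw [← hHeq, hH, fix_iff, Subgroup.map_sup]
      rw [fix_iff.1 (hfB α hα), fix_iff.1 (fix_of_inv hRP hα).normalizer]
  -- the permutations
  have hperm : ∀ α ∈ P, ∃ σ : Equiv.Perm I, ∀ J : Set I, (PJ cs h T X J).map α.toMonoidHom = PJ cs h T X (σ '' J) := by
    intro α hα
    obtain ⟨σ, -, -, h1⟩ := H76.OC.exists_perm_PJ R hG (fix_iff.1 (hfB α hα))
    exact ⟨σ, h1⟩
  refine eq_conj_of_panel R hG1 (hfU y L.mem) fun i => ?_
  -- the orbit of `i`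
  obtain ⟨O, hO⟩ : ∃ O : Set I, O = {j | ∃ α ∈ P, (PJ cs h T X {i}).map α.toMonoidHom = PJ cs h T X {j}} := ⟨_, rfl⟩
  have hiO : i ∈ O := by
    rw [hO]
    refine ⟨1, one_mem _, ?_⟩
    have h1 : ((1 : MulAut Y)).toMonoidHom = MonoidHom.id Y := rfl
    rw [h1, Subgroup.map_id]
  have hOu : O ≠ Set.univ := by
    intro hu
    have hall : ∀ j, ∃ α ∈ P, (PJ cs h T X {i}).map α.toMonoidHom = PJ cs h T X {j} := by
      intro j
      have h1 : j ∈ O := by rw [hu]; exact Set.mem_univ j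
      rw [hO] at h1
      exact h1
    by_cases hiJ : i ∈ J
    · apply hJ1
      rw [Set.eq_univ_iff_forall]
      intro j
      obtain ⟨α, hα, h1⟩ := hall j
      have h2 : PJ cs h T X {j} ≤ PJ cs h T X J := by
        rw [← h1, ← fix_iff.1 (hJP α hα)]
        exact Subgroup.map_mono ((PJ_le_iff R).2 (Set.singleton_subset_iff.2 hiJ))
      exact (PJ_le_iff R).1 h2 rfl
    · obtain ⟨j, hj⟩ := hJ0
      obtain ⟨α, hα, h1⟩ := hall j
      apply hiJ
      have h2 : (PJ cs h T X {i}).map α.toMonoidHom ≤ (PJ cs h T X J).map α.toMonoidHom := by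
        rw [h1, fix_iff.1 (hJP α hα)]
        exact (PJ_le_iff R).2 (Set.singleton_subset_iff.2 hj)
      have h3 := (Subgroup.map_le_map_iff_of_injective α.injective).1 h2
      exact (PJ_le_iff R).1 h3 rfl
  have hfO : ∀ α ∈ P, Fix α (PJ cs h T X O) := by
    have key : ∀ α ∈ P, (PJ cs h T X O).map α.toMonoidHom ≤ PJ cs h T X O := by
      intro α hα
      obtain ⟨σ, hσ⟩ := hperm α hα
      rw [hσ, PJ_le_iff R]
      rintro _ ⟨j, hj, rfl⟩
      rw [hO] at hj ⊢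
      obtain ⟨β, hβ, h1⟩ := hj
      refine ⟨α * β, mul_mem hα hβ, ?_⟩
      have h2 := hσ {j}
      rw [Set.image_singleton] at h2
      rw [← h2, ← h1, Subgroup.map_map]
      rfl
    intro α hα
    refine fix_of_inv (P := P) (fun β hβ s hs => ?_) hα
    exact key β hβ ⟨s, hs, rfl⟩
  -- the radical
  have hfV : ∀ α ∈ P, ∀ r ∈ VJ cs h X O, α r ∈ VJ cs h X O := fun α hα r hr =>
    (fix_VJ R (hfU α hα) (hfO α hα) r).2 hr
  have hNV : Subgroup.normalizer (VJ cs h X O : Set Y) = PJ cs h T X O := by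
    have := normalizer_VJ R O
    rwa [hG, inf_top_eq] at this
  intro k hk
  have hkO : k ∈ PJ cs h T X O := (PJ_le_iff R).2 (Set.singleton_subset_iff.2 hiO) hk
  obtain ⟨D, hDN, hD2, hDn, hkD⟩ := L.V_loc _ (VJ_ne_bot R hOu) (VJ_le_U O) hfV k (by rw [hNV]; exact hkO)
  obtain ⟨S, hS⟩ := exists_sylow_U R hG
  have hDS : D ≤ S := by
    refine H215.L2Out.Filt.le_sylow_of hD2 ?_
    intro s hs
    rw [hS] at hs
    have hs' : s ∈ Subgroup.normalizer (VJ cs h X O : Set Y) := by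
      rw [hNV]; exact B_le_PJ (RGD.U_le_B hs)
    rw [Subgroup.mem_normalizer_iff]
    intro d
    refine ⟨hDn s hs' d, fun hd => ?_⟩
    have h1 := hDn s⁻¹ (inv_mem hs') _ hd
    have h2 : s⁻¹ * (s * d * s⁻¹) * s⁻¹⁻¹ = d := by group
    rwa [h2] at h1
  refine H215.L2Out.Rgd.VJ_le_PosNe hiO ?_
  rw [mem_VJ_iff R]
  intro g hg
  rw [← hS]
  exact hDS (hDn g (by rw [hNV]; exact hg) _ hkD)

end Cfsg.Agent.H382.Tall
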