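import Cfsg.Agent.H382.Tall.Core
import Cfsg.Agent.H226.Tall.Defs
import Cfsg.Agent.H246.SzInner
import Cfsg.Agent.H246.TwF4Inner

/-!
# Rigidity for the simple groups of Lie type in characteristic two (task LRIG of S2927)

* `rig_of_filt` : groups with a filtered root group datum;
* `rig_of_inner` : groups without outer automorphisms of 2-power order;
* `rig_lie2` : all groups of Lie type in characteristic two.
-/

set_option autoImplicit false
set_option linter.unusedSectionVars false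

namespace Cfsg.Agent.H382.Tall

open Subgroup Cfsg
open Cfsg.Agent.H226.Tall
open Cfsg.Agent.Nodes.Reps Cfsg.Agent.Nodes.BNOf Cfsg.Agent.KFacts.RgdCharP Cfsg.Agent.KFacts.RgdFilt

universe u

/-! ### the raw form -/

section Raw

variable {K K' : Type*} [Group K] [Group K']

theorem raw_of_loc {K : Type u} [Group K] {S₁ : Sylow 2 K} {P V : Subgroup (MulAut K)} (L : Loc S₁ P V)
    {y : MulAut K} (hy : y ∈ V) : Raw (S₁ : Subgroup K) P y where
  mem := L.V_le hy
  conj_mem := L.conj_mem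
  P_norm := L.P_norm
  loc := L.loc
  V_loc := by
    intro R h1 h2 h3 k hk
    refine ⟨O2 (normalizer (R : Set K)), ?_, ?_, ?_, L.V_loc R h1 h2 h3 y hy k hk⟩
    · exact Subgroup.map_subtype_le _
    · exact (Lib.Cores.pCore_isPGroup 2).map _
    · rintro g hg _ ⟨d, hd, rfl⟩
      exact ⟨⟨g, hg⟩ * d * ⟨g, hg⟩⁻¹, (Lib.Cores.pCore_normal 2).conj_mem d hd ⟨g, hg⟩, rfl⟩

/-- transport of automorphisms -/
def tr (e : K ≃* K') (α : MulAut K) : MulAut K' := (e.symm.trans α).trans e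

theorem tr_apply (e : K ≃* K') (α : MulAut K) (x : K') : tr e α x = e (α (e.symm x)) := rfl

theorem tr_conj (e : K ≃* K') (s : K) : tr e (MulAut.conj s) = MulAut.conj (e s) := by
  ext x
  rw [tr_apply, MulAut.conj_apply, MulAut.conj_apply, map_mul, map_mul, map_inv, e.apply_symm_apply]

/-- transport of groups of automorphisms -/
def trS (e : K ≃* K') (P : Subgroup (MulAut K)) : Subgroup (MulAut K') where
  carrier := {β | ∃ α ∈ P, β = tr e α}
  one_mem' := ⟨1, one_mem _, by ext x; simp [tr_apply]⟩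
  mul_mem' := by
    rintro _ _ ⟨a, ha, rfl⟩ ⟨b, hb, rfl⟩
    exact ⟨a * b, mul_mem ha hb, by ext x; simp [tr_apply]⟩
  inv_mem' := by
    rintro _ ⟨a, ha, rfl⟩
    refine ⟨a⁻¹, inv_mem ha, ?_⟩
    rw [inv_eq_iff_mul_eq_one]
    ext x
    simp [tr_apply]

theorem map_normalizer (e : K ≃* K') (R : Subgroup K) :
    normalizer ((R.map e.toMonoidHom : Subgroup K') : Set K') = (normalizer (R : Set K)).map e.toMonoidHom := by
  exact (Subgroup.map_equiv_normalizer_eq R e).symm

theorem Raw.map (e : K ≃* K') {S : Subgroup K} {P : Subgroup (MulAut K)} {y : MulAut K} (L : Raw S P y) :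
    Raw (S.map e.toMonoidHom) (trS e P) (tr e y) where
  mem := ⟨y, L.mem, rfl⟩
  conj_mem := by
    rintro _ ⟨s, hs, rfl⟩
    exact ⟨MulAut.conj s, L.conj_mem s hs, (tr_conj e s).symm⟩
  P_norm := by
    rintro _ ⟨α, hα, rfl⟩ _ ⟨s, hs, rfl⟩
    refine ⟨α s, L.P_norm α hα s hs, ?_⟩
    change e (α s) = tr e α (e s)
    rw [tr_apply, e.symm_apply_apply]
  loc := by
    obtain ⟨R, h1, h2, h3, h4⟩ := L.loc
    refine ⟨R.map e.toMonoidHom, ?_, Subgroup.map_mono h2, ?_, ?_⟩
    · intro h0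
      exact h1 ((Subgroup.map_eq_bot_iff_of_injective _ e.injective).1 h0)
    · rintro _ ⟨α, hα, rfl⟩ _ ⟨s, hs, rfl⟩
      refine ⟨α s, h3 α hα s hs, ?_⟩
      change e (α s) = tr e α (e s)
      rw [tr_apply, e.symm_apply_apply]
    · rw [map_normalizer, map_normalizer]
      intro h5
      exact h4 ((Subgroup.map_le_map_iff_of_injective e.injective).1 h5)
  V_loc := by
    intro R' h1 h2 h3 k hk
    obtain ⟨R, hR⟩ : ∃ R : Subgroup K, R = R'.comap e.toMonoidHom := ⟨_, rfl⟩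
    have hRR : R.map e.toMonoidHom = R' := by
      rw [hR]
      exact Subgroup.map_comap_eq_self_of_surjective e.surjective R'
    rw [← hRR, map_normalizer] at hk
    obtain ⟨k, hk, rfl⟩ := hk
    obtain ⟨D, hD1, hD2, hD3, hD4⟩ := L.V_loc R (by
        rintro rfl
        apply h1
        rw [← hRR, Subgroup.map_bot]) (by
        rw [← hRR] at h2
        exact (Subgroup.map_le_map_iff_of_injective e.injective).1 h2) (by
        intro α hα r hr
        have h4 := h3 _ ⟨α, hα, rfl⟩ (e r) (by rw [← hRR]; exact ⟨r, hr, rfl⟩)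
        rw [tr_apply, e.symm_apply_apply, ← hRR] at h4
        obtain ⟨s, hs, h5⟩ := h4
        exact e.injective h5 ▸ hs) k hk
    refine ⟨D.map e.toMonoidHom, ?_, hD2.map _, ?_, ?_⟩
    · rw [← hRR, map_normalizer]
      exact Subgroup.map_mono hD1
    · rw [← hRR, map_normalizer]
      rintro _ ⟨g, hg, rfl⟩ _ ⟨d, hd, rfl⟩
      exact ⟨g * d * g⁻¹, hD3 g hg d hd, by simp⟩
    · refine ⟨_, hD4, ?_⟩
      change e (k⁻¹ * y k) = (e k)⁻¹ * tr e y (e k)
      rw [tr_apply, e.symm_apply_apply, map_mul, map_inv]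

end Raw

/-! ### the theorems -/

theorem rig_of_filt {K : Type u} [Group K] [Finite K] [IsSimpleGroup K] (hc : ∃ a b : K, a * b ≠ b * a)
    (hf : HasFilt 2 K) : Rig K := by
  intro S₁ P V L y hy
  obtain ⟨l, M, A, h, T, n, X, R, hW, hBT, hG, -, -, hG1, -⟩ := hf.data hc
  obtain ⟨S, hS⟩ := exists_sylow_U R hG
  have : Fact (Nat.Prime 2) := ⟨Nat.prime_two⟩
  obtain ⟨g, hg⟩ := MulAction.exists_smul_eq K S₁ S
  have hgS : (S₁ : Subgroup K).map (MulAut.conj g).toMonoidHom = RGD.Sup X (RGD.Pos M.toCoxeterSystem h) := by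
    rw [← hS, ← hg]; rfl
  have L1 := (raw_of_loc L hy).map (MulAut.conj g)
  rw [hgS] at L1
  obtain ⟨s, hs, h1⟩ := core R hG1 hBT L1
  rw [← hgS] at hs
  obtain ⟨s, hs, rfl⟩ := hs
  refine ⟨s, hs, ?_⟩
  ext x
  have h2 : tr (MulAut.conj g) y (MulAut.conj g x) = MulAut.conj (MulAut.conj g s) (MulAut.conj g x) := by
    rw [h1]; rfl
  rw [tr_apply, MulEquiv.symm_apply_apply, ← tr_conj, tr_apply, MulEquiv.symm_apply_apply] at h2
  exact (MulAut.conj g).injective h2

/-- If all automorphisms of 2-power order are inner. -/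
theorem rig_of_inner {K : Type u} [Group K] [Finite K] [IsSimpleGroup K] (hc : ∃ a b : K, a * b ≠ b * a)
    (hin : ∀ (α : MulAut K) (m : ℕ), α ^ 2 ^ m = 1 → ∃ z, α = MulAut.conj z) : Rig K := by
  intro S₁ P V L y hy
  have : Fact (Nat.Prime 2) := ⟨Nat.prime_two⟩
  obtain ⟨m, hm⟩ := L.P_two ⟨y, L.V_le hy⟩
  have hm' : y ^ 2 ^ m = 1 := congrArg Subtype.val hm
  obtain ⟨z, rfl⟩ := hin y m hm'
  refine ⟨z, ?_, rfl⟩
  have hcen : center K = ⊥ := KFacts.RgdLieCharP.center_eq_bot hc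
  have hz : z ^ 2 ^ m = 1 := by
    rw [← map_pow] at hm'
    have h1 : z ^ 2 ^ m ∈ center K := by
      rw [mem_center_iff]
      intro x
      have h2 := DFunLike.congr_fun hm' x
      rw [MulAut.conj_apply, MulAut.one_apply] at h2
      rw [← mul_inv_eq_iff_eq_mul.1 h2]
    rwa [hcen, mem_bot] at h1
  have hzp : IsPGroup 2 (zpowers z) := IsPGroup.of_card (n := (Nat.log 2 (orderOf z))) (by
    rw [Nat.card_zpowers]
    obtain ⟨j, -, hj⟩ := (Nat.dvd_prime_pow Nat.prime_two).1 (orderOf_dvd_of_pow_eq_one hz)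
    rw [hj, Nat.log_pow (by norm_num)])
  have hzn : z ∈ normalizer ((S₁ : Subgroup K) : Set K) := by
    rw [mem_normalizer_iff]
    intro x
    have := fix_of_inv L.P_norm (L.V_le hy) x
    rw [MulAut.conj_apply] at this
    exact this.symm
  have h1 : IsPGroup 2 ↥((S₁ : Subgroup K) ⊔ zpowers z) :=
    IsPGroup.to_sup_of_normal_left' S₁.2 hzp (by rwa [zpowers_le])
  have h2 := S₁.3 h1 le_sup_left
  rw [← h2]
  exact mem_sup_right (mem_zpowers z)

/-- **Rigidity** for the simple groups of Lie type in characteristic two. -/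
theorem rig_lie2 {K : Type u} [Group K] [Finite K] [IsSimpleGroup K] (hc : ∃ a b : K, a * b ≠ b * a)
    (h : IsLieTypeChar 2 K) : Rig K := by
  have filt : KFacts.RgdLieCharP.IsLieFilt 2 K → Rig K := fun h1 =>
    rig_of_filt hc (KFacts.RgdLieCharP.hasFilt_of_lie h1)
  rcases h with h | h | h | h | h | h | h | h | ⟨-, h⟩ | ⟨-, h⟩ | ⟨h, -⟩
  · exact filt (Or.inl h)
  · exact filt (Or.inr (Or.inl h))
  · exact filt (Or.inr (Or.inr (Or.inl h)))
  · exact filt (Or.inr (Or.inr (Or.inr (Or.inl h))))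
  · exact filt (Or.inr (Or.inr (Or.inr (Or.inr (Or.inl h)))))
  · exact filt (Or.inr (Or.inr (Or.inr (Or.inr (Or.inr (Or.inl h))))))
  · exact filt (Or.inr (Or.inr (Or.inr (Or.inr (Or.inr (Or.inr (Or.inl h)))))))
  · exact filt (Or.inr (Or.inr (Or.inr (Or.inr (Or.inr (Or.inr (Or.inr h)))))))
  · exact rig_of_inner hc fun α m hm => H246.SzInner.inner_iso h α hm
  · exact rig_of_inner hc fun α m hm => H246.TwF4Inner.inner_iso h α hm
  · exact absurd h (by norm_num)

end Cfsg.Agent.H382.Tall
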